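import Mathlib
import Cfsg.Agent.Lib.E6V.Pat
import Cfsg.Agent.Lib.Semi.Chev

/-!
Semisimple elements and involutions of the isometry group of the cubic form in 27 variables.
-/

set_option autoImplicit false

namespace CfsgLib.E6V

open Cfsg.Lie CfsgLib.Chev CfsgLib.Stein CfsgLib.RGD CfsgLib.Weyl Matrix Finset

variable {K : Type*} [Field K]

theorem diag_of_comm {g : Γ K} (h : ∀ r < 72, ∃ c : K, c ≠ 0 ∧ mt g * E K r = c • (E K r * mt g)) :
    mt g = diagonal fun a => mt g a a := by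
  ext b a
  by_cases e : b = a
  · simp [e]
  obtain ⟨i, r, hr, h1, h2, h3⟩ := arr_chk a b e
  obtain ⟨c, hc, h4⟩ := h r hr
  have := congrFun (congrFun h4 i) a
  rw [mul_apply, sum_eq_zero fun k _ => by
    rw [E_apply]
    split_ifs with h5
    · simp [h3 a (by simp) k h5]
    · simp] at this
  simpa [E_mul, h1, hc, es_ne (F := K) hr h2, e] using this

theorem y_pow {r : ℕ} (hr : r < 72) (t : K) (n : ℕ) : y r t ^ n = y r (n * t) := by
  induction n with
  | zero => simp [rel12_y.zero hr]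
  | succ n ih => rw [pow_succ, ih, rel12_y.add r hr]; simp [add_mul]

theorem three_of_algClosed [IsAlgClosed K] : ∃ s : K, s ≠ 0 ∧ s ≠ 1 := by
  classical
  simpa using Infinite.exists_notMem_finset ({0, 1} : Finset K)

/-- elements of order prime to the characteristic are diagonalisable -/
theorem exists_diag [IsAlgClosed K] (p : ℕ) [Fact p.Prime] [CharP K p] (hK : ∀ x : K, ∃ m, 0 < m ∧ x ^ p ^ m = x)
    (x : Γ K) {m : ℕ} (hm : ¬ p ∣ m) (e : x ^ m = 1) :
    ∃ g : Γ K, mt (g⁻¹ * x * g) = diagonal fun a => mt (g⁻¹ * x * g) a a := by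
  obtain ⟨φ, hφ⟩ := exists_iso (F := K) three_of_algClosed
  let θ : Γ K →* GL chevE6.Idx K :=
    (chevE6.group K).subtype.comp (φ.symm.toMonoidHom.comp (QuotientGroup.mk' _))
  have h1 : ∀ r < 72, ∀ t, θ (y r t) = xU chevE6 K r t := fun r hr t =>
    congrArg Subtype.val (φ.symm_apply_eq.2 (hφ r hr t).symm)
  have hF := Semi.frob_chev (K := K) rtOKE6 (by simp) p hK
  obtain ⟨z, hz, c, h2⟩ := hF.toral (s := θ x) ((stSys_grp rtOKE6).ge (φ.symm _).2) hm (by rw [← map_pow, e, map_one])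
  obtain ⟨g, hg⟩ := QuotientGroup.mk_surjective (φ ⟨z, (stSys_grp rtOKE6).le hz⟩)
  obtain rfl : θ g = z := congrArg Subtype.val (φ.symm_apply_eq.2 hg)
  rw [← map_inv, ← map_mul, ← map_mul] at h2
  refine ⟨g, diag_of_comm fun r hr => ?_⟩
  generalize g⁻¹ * x * g = u at h2
  have h3 := hF.isTor.conj c ⟨r, hr⟩ 1
  rw [stSys_x, stSys_x, ← h1 r hr, ← h1 r hr, ← h2, ← map_inv, ← map_mul, ← map_mul, mul_one] at h3
  generalize (rootSys rtOKE6).chr c ⟨r, hr⟩ = χ at h3
  have h4 := Subgroup.mem_center_iff.1 (QuotientGroup.eq.1 (φ.symm.injective (Subtype.ext h3)).symm)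
  generalize hw : (y r χ.1)⁻¹ * (u * y r 1 * u⁻¹) = w at h4
  have h5 : w ^ p = 1 := by
    have := (Commute.mul_pow (h4 (y r χ.1)) p).symm
    rwa [← hw, mul_inv_cancel_left, conj_pow, y_pow hr, y_pow hr, CharP.cast_eq_zero, zero_mul, zero_mul,
      rel12_y.zero hr, one_mul, mul_one, mul_inv_cancel, hw] at this
  have h6 := diag_of_comm (g := w) fun s hs => ⟨1, one_ne_zero, by
    simpa [mt_y hs, mul_add, add_mul] using congrArg mt (h4 (y s 1)).symm⟩
  have h7 : w = 1 := mt_injective (by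
    have := congrArg mt h5
    rw [map_pow, h6, diagonal_pow, map_one, ← diagonal_one, diagonal_eq_diagonal_iff] at this
    rw [h6, map_one, ← diagonal_one, diagonal_eq_diagonal_iff]
    refine fun a => sub_eq_zero.1 (pow_eq_zero_iff (Fact.out : p.Prime).ne_zero |>.1 ?_)
    rw [sub_pow_char, one_pow, sub_eq_zero]
    exact this a)
  rw [h7, inv_mul_eq_one, eq_mul_inv_iff_mul_eq] at hw
  exact ⟨χ, χ.ne_zero, by simpa [mt_y hr, mul_add, add_mul] using congrArg mt hw.symm⟩

variable (K) in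
/-- the diagonal matrix of a pattern -/
def dg (P : I → Bool) : Matrix I I K := diagonal fun a => if P a then -1 else 1

theorem B_smul₃ (x y z : I → K) (t : K) : B x y (t • z) = t * B x y z := by
  rw [B_comm', B_comm, B_smul, B_comm, B_comm']

/-- **The involutions.** -/
theorem exists_ty [IsAlgClosed K] (p : ℕ) [Fact p.Prime] [CharP K p] (hK : ∀ x : K, ∃ m, 0 < m ∧ x ^ p ^ m = x)
    (h2 : p ≠ 2) {x : Γ K} (hx : x * x = 1) (h1 : x ≠ 1) : ∃ g P, mt (g⁻¹ * x * g) = dg K P ∧ Ty P := by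
  classical
  obtain ⟨g, hg⟩ := exists_diag p hK x (m := 2) (fun h => h2 ((Nat.prime_dvd_prime_iff_eq Fact.out Nat.prime_two).1 h))
    (by rw [sq, hx])
  have h3 : (-1 : K) ≠ 1 := Ring.neg_one_ne_one_of_char_ne_two (by rwa [ringChar.eq K p])
  have h4 : g⁻¹ * x * g * (g⁻¹ * x * g) = 1 := by
    rw [show g⁻¹ * x * g * (g⁻¹ * x * g) = g⁻¹ * (x * x) * g by group, hx]; simp
  have h5 : g⁻¹ * x * g ≠ 1 := fun h => h1 (by simpa [mul_assoc, inv_mul_eq_one] using h)
  refine ⟨g, fun a => decide (mt (g⁻¹ * x * g) a a = -1), ?_⟩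
  generalize g⁻¹ * x * g = u at *
  generalize (fun a => mt u a a) = c at hg
  simp only [hg, diagonal_apply_eq]
  have h6 : ∀ a, c a = 1 ∨ c a = -1 := fun a => mul_self_eq_one_iff.1 (by
    have := congrArg mt h4
    rw [map_mul, hg, diagonal_mul_diagonal, map_one, ← diagonal_one, diagonal_eq_diagonal_iff] at this
    exact this a)
  have h7 : diagonal c = dg K fun a => decide (c a = -1) := congrArg diagonal (funext fun a => by
    rcases h6 a with h | h <;> simp [h, h3.symm])
  have h8 : Ad fun a => decide (c a = -1) := fun a b h => by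
    have := B_mt three_of_algClosed u (e a) (e (th a b)) (e b)
    rw [hg, show diagonal c *ᵥ e a = c a • e a by simp [← Pi.single_smul],
      show diagonal c *ᵥ e b = c b • e b by simp [← Pi.single_smul], B_smul, B_smul₃, B_ee, B_ee] at this
    simp only [mulVec_diagonal, e, Pi.single_eq_same, mul_one] at this
    have h9 : c a * c b * c (th a b) = 1 := mul_left_cancel₀ (sg_ne h) (by linear_combination this)
    rcases h6 a with k1 | k1 <;> rcases h6 b with k2 | k2 <;> rcases h6 (th a b) with k3 | k3 <;>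
      simp [k1, k2, k3, h3, h3.symm] at h9 ⊢
  have k3 := pat_ty (c 0 = -1) (c 1 = -1) (c 2 = -1) (c 3 = -1) (c 9 = -1) (c 10 = -1)
  rw [← h8.ext (ad_pat _ _ _ _ _ _) (List.map_inj_left.1 (pat_map _ _ _ _ _ _).symm)] at k3
  refine ⟨h7, k3.resolve_left fun h => h5 (mt_injective ?_)⟩
  rw [hg, h7, map_one, dg]
  simp [h]

/-- the dimension of the commutator space -/
noncomputable def dm (x : Γ K) : ℕ := (mt x - 1).rank

theorem dm_conj (g x : Γ K) : dm (g⁻¹ * x * g) = dm x := by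
  have h : ∀ g : Γ K, IsUnit (mt g).det := fun g => (isUnit_iff_isUnit_det _).1 ((Group.isUnit g).map mt)
  rw [dm, dm, ← rank_mul_eq_left_of_isUnit_det _ (mt x - 1) (h g),
    ← rank_mul_eq_right_of_isUnit_det _ ((mt x - 1) * mt g) (h g⁻¹),
    sub_mul, mul_sub, one_mul, ← map_mul, ← map_mul, ← map_mul, inv_mul_cancel, map_one, mul_assoc]

theorem dm_eq [IsAlgClosed K] (p : ℕ) [Fact p.Prime] [CharP K p] (hK : ∀ x : K, ∃ m, 0 < m ∧ x ^ p ^ m = x)
    (h2 : p ≠ 2) {x : Γ K} (e : x * x = 1) (h1 : x ≠ 1) : dm x = 12 ∨ dm x = 16 := by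
  classical
  obtain ⟨g, P, h3, h4⟩ := exists_ty p hK h2 e h1
  have h5 : (-1 : K) ≠ 1 := Ring.neg_one_ne_one_of_char_ne_two (by rwa [ringChar.eq K p])
  have : dm x = #{a | P a} := by
    rw [← dm_conj g, dm, h3, dg, ← diagonal_one, diagonal_sub, rank_diagonal, Fintype.card_subtype]
    congr 2
    funext a
    cases P a <;> simp [sub_eq_zero, h5]
  exact h4.symm.imp (fun h => this.trans h.1) fun h => this.trans h.1

end CfsgLib.E6V
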