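import Mathlib
import Cfsg.Agent.Lib.E6V.Diag

/-!
A subgroup of the centraliser of an involution containing the involution has a non-trivial module of dimension `≤ 10`.
-/

set_option autoImplicit false

namespace CfsgLib.E6V

open Matrix Finset Module

theorem td_chk : ∀ a : I, #{i | sg a i ≠ 0} ≤ 10 ∧ (∀ c, sg a c ≠ 0 → ∃ b, (sg a b = 0 ∧ b ≠ a) ∧ sg b c ≠ 0) ∧
    ∃ c, sg a c ≠ 0 ∧ #{b | (sg a b = 0 ∧ b ≠ a) ∧ sg c b = 0} ≤ 10 ∧ ∃ b, (sg a b = 0 ∧ b ≠ a) ∧ sg c b = 0 := by
  decide +kernel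

theorem ta_chk : ∀ r < 72, #{k | ∃ i, es r i ≠ 0 ∧ src r i = k} ≤ 10 := by decide +kernel

variable {K : Type} [Field K] {H : Type*} [Group H] (j : H →* Γ K)
  (htriv : ∀ (W : Type) [AddCommGroup W] [Module K W] [FiniteDimensional K W], finrank K W ≤ 10 →
    ∀ (ρ : H →* End K W) (g : H), ρ g = 1)
include htriv

theorem blk (S : I → Prop) [DecidablePred S] (hS : #{i | S i} ≤ 10)
    (h : ∀ g g' c k d, S c → ¬ S k → S d → mt (j g) c k * mt (j g') k d = 0) (g : H) {c d : I} (hc : S c) (hd : S d) :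
    mt (j g) c d = if c = d then 1 else 0 := by
  let ρ : H →* Matrix {i // S i} {i // S i} K :=
    { toFun := fun g => (mt (j g)).submatrix Subtype.val Subtype.val
      map_one' := by rw [map_one, map_one, submatrix_one _ Subtype.val_injective]
      map_mul' := fun g g' => by
        ext c d
        rw [map_mul, map_mul, submatrix_apply, mul_apply, mul_apply, ← Fintype.sum_subtype_add_sum_subtype S,
          sum_eq_zero (s := (univ : Finset {i // ¬ S i})) fun k _ => h g g' c k d c.2 k.2 d.2, add_zero]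
        rfl }
  have := htriv _ (by simpa [Fintype.card_subtype] using hS) (toLinAlgEquiv'.toMonoidHom.comp ρ) g
  simpa [ρ, one_apply] using
    congrFun (congrFun (toLinAlgEquiv'.injective (this.trans (map_one _).symm)) ⟨c, hc⟩) ⟨d, hd⟩

variable (hF : ∃ s : K, s ≠ 0 ∧ s ≠ 1) (h2 : (2 : K) ≠ 0) {z : H} (hz : z ∈ Subgroup.center H) {P : I → Bool}
  (hP : mt (j z) = dg K P)
include h2 hz hP

omit htriv h2 in
theorem comm_dg (g : H) : mt (j g) * dg K P = dg K P * mt (j g) := by
  rw [← hP, ← map_mul, ← map_mul, ← map_mul, ← map_mul, Subgroup.mem_center_iff.1 hz]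

omit htriv in
theorem ent_eq_zero (g : H) {c k : I} (h : ¬ (P c ↔ P k)) : mt (j g) c k = 0 := by
  have := congrFun (congrFun (comm_dg j hz hP g) c) k
  simp only [dg, mul_diagonal, diagonal_mul] at this
  refine (mul_eq_zero.1 ?_).resolve_left h2
  cases hc : P c <;> cases hk : P k <;> simp only [hc, hk] at this h
  · simp at h
  · simp only [if_true, Bool.false_eq_true, if_false] at this; linear_combination -this
  · simp only [if_true, Bool.false_eq_true, if_false] at this; linear_combination this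
  · simp at h

omit htriv hz in
theorem z_ne {b : I} (hb : P b) : mt (j z) b b ≠ if b = b then 1 else 0 := fun h => by
  rw [hP, dg, diagonal_apply_eq, if_pos hb, if_pos rfl] at h
  exact h2 (by linear_combination -h)

include hF

theorem not_TD {a : I} (ha : TD P a) : False := by
  obtain ⟨k1, k2, c, k3, k4, b, k5⟩ := td_chk a
  have h0 := ent_eq_zero j h2 hz hP
  have h1 : ∀ g c, sg a c ≠ 0 → mt (j g) c a = 0 := fun g c hc => by
    obtain ⟨b, h1, h3⟩ := k2 c hc
    have := B_mt hF (j g) (e a) (mt (j g)⁻¹ *ᵥ e b) (mt (j g)⁻¹ *ᵥ e (th b c))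
    rw [mt_inv_mulVec, mt_inv_mulVec, B_comm, B_ee, (th_spec b c h3).2.1, (th_spec b c h3).2.2.1, mt_e, B_e,
      sum_eq_zero fun k _ => by
        by_cases h : sg a k = 0
        · simp [h]
        · rw [mt_e (j g)⁻¹ b, ← map_inv, h0 g⁻¹ (by simp [ha _, h1, h, (th_spec a k h).2.2.1])]; simp] at this
    simpa [sg_ne h3] using this
  have h3 := blk j htriv (sg a · ≠ 0) k1 fun g g' c k d hc hk _ => by
    by_cases e : k = a
    · rw [e, h1 g c hc, zero_mul]
    · rw [h0 g (by simpa [ha _, hc, e] using hk), zero_mul]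
  have h4 : ∀ g b, b ≠ c → mt (j g) b c = 0 := fun g b =>
    white hF (j g) (by simp [h3 g k3 k3]) fun b hb hb' => by
      by_cases h : sg a b = 0
      · exact h0 g (by simpa [ha _, h, k3] using fun e : b = a => k3 (by rw [← e, sg_comm, hb']))
      · rw [h3 g h k3, if_neg hb]
  refine z_ne j h2 hP ((ha b).2 k5.1) (blk j htriv _ k4 (fun g g' _ k d _ hk hd => ?_) z k5 k5)
  by_cases h : sg a k = 0 ∧ k ≠ a
  · rw [v17 hF (j g') (h4 g') hd.2 fun e => hk ⟨h, e⟩, mul_zero]
  · rw [h0 g' (by simpa [ha _, hd.1] using h), mul_zero]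

theorem not_TA {r : ℕ} (hr : r < 72) {i : I} (ha : TA P r i) : False := by
  have b3 : ∀ x u w w' : I → K, B x u (w + w') = B x u w + B x u w' := fun x u w w' => by
    simpa using B_lin x u w w' 1
  let S : Submodule K (Matrix I I K) :=
    { carrier := {φ | dg K P * φ = -φ ∧ φ * dg K P = -φ ∧ ∀ x u w, dg K P *ᵥ x = x → B x w (φ *ᵥ u) + B x u (φ *ᵥ w) = 0}
      add_mem' := fun {φ ψ} h h' => ⟨by rw [mul_add, h.1, h'.1, neg_add], by rw [add_mul, h.2.1, h'.2.1, neg_add],
        fun x u w hx => by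
          rw [add_mulVec, add_mulVec, b3, b3]
          linear_combination h.2.2 x u w hx + h'.2.2 x u w hx⟩
      zero_mem' := ⟨by simp, by simp, fun x u w _ => by simp [B_sum x _ 0]⟩
      smul_mem' := fun t φ h => ⟨by rw [mul_smul_comm, h.1, smul_neg], by rw [smul_mul_assoc, h.2.1, smul_neg],
        fun x u w hx => by
          rw [smul_mulVec, smul_mulVec, B_smul₃, B_smul₃]
          linear_combination t * h.2.2 x u w hx⟩ }
  have hc := comm_dg j hz hP
  have h1 : ∀ g, ∀ φ ∈ S, LinearMap.mulLeftRight K (mt (j g), mt (j g⁻¹)) φ ∈ S := fun g φ h => by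
    rw [LinearMap.mulLeftRight_apply]
    refine ⟨by rw [← mul_assoc, ← mul_assoc, ← hc, mul_assoc _ _ φ, h.1]; simp,
      by rw [mul_assoc, hc, ← mul_assoc, mul_assoc _ φ, h.2.1]; simp, fun x u w hx => ?_⟩
    have := h.2.2 (mt (j g⁻¹) *ᵥ x) (mt (j g⁻¹) *ᵥ u) (mt (j g⁻¹) *ᵥ w) (by
      rw [mulVec_mulVec, ← hc, ← mulVec_mulVec, hx])
    rw [← B_mt hF (j g), ← B_mt hF (j g) _ (_ *ᵥ u)] at this
    simpa only [map_inv, mt_inv_mulVec, ← mulVec_mulVec] using this
  let ρ : H →* End K S :=
    { toFun := fun g => (LinearMap.mulLeftRight K (mt (j g), mt (j g⁻¹))).restrict (h1 g)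
      map_one' := by ext; simp
      map_mul' := fun g g' => by ext; simp [mul_assoc] }
  have hs : ∀ φ ∈ S, ∀ d b, ¬ (P d ∧ P b) → φ d b = 0 := fun φ h d b k => by
    refine (mul_eq_zero.1 ?_).resolve_left h2
    rcases not_and_or.1 k with k | k
    · have := congrFun (congrFun h.1 d) b
      simp only [dg, diagonal_mul, k, Matrix.neg_apply, Bool.false_eq_true, if_false] at this
      linear_combination this
    · have := congrFun (congrFun h.2.1 d) b
      simp only [dg, mul_diagonal, k, Matrix.neg_apply, Bool.false_eq_true, if_false] at this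
      linear_combination this
  let L : S →ₗ[K] Fin 2 → Fin 2 → K :=
    { toFun := fun φ s t => φ.1 (![i, src r i] s) (![i, src r i] t), map_add' := fun _ _ => rfl, map_smul' := fun _ _ => rfl }
  have h3 : Function.Injective L := (injective_iff_map_eq_zero L).2 fun φ h => Subtype.ext (by
    have k : ∀ d ∈ [i, src r i], ∀ b ∈ [i, src r i], φ.1 d b = 0 := by
      simpa using ⟨⟨congrFun (congrFun h 0) 0, congrFun (congrFun h 0) 1⟩, congrFun (congrFun h 1) 0,
        congrFun (congrFun h 1) 1⟩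
    ext d b
    by_cases h4 : P d ∧ P b
    swap
    · exact hs _ φ.2 d b h4
    rcases ha.2.2 d h4.1 b h4.2 with h5 | ⟨c, h5, h6, h7⟩
    · exact k _ h5.1 _ h5.2
    obtain ⟨-, t1, t2, t3, t4⟩ := th_spec c d (by rwa [sg_comm])
    have := φ.2.2.2 (e (th d c)) (e b) (e c) (by simp [dg, h6])
    rw [B_comm', B_ee, B_comm', B_ee, t3, t4, sg_comm, t2, ← t3] at this
    have h8 : (sg (th d c) b : K) * φ.1 (th (th d c) b) c = 0 := by
      rcases h7 with h7 | h7
      · simp [h7]
      · simp [k _ h7.2 _ h7.1]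
    simpa [h8, sg_ne (F := K) h5, sg_comm c] using this)
  have h4 : E K r ∈ S := ⟨by
    ext a b
    by_cases h : es r a = 0
    · simp [dg, E_apply, h]
    · simp [dg, (ha.2.1 a h).1], by
    ext a b
    by_cases h : es r a = 0
    · simp [dg, E_apply, h]
    · by_cases h' : src r a = b
      · simp [dg, ← h', (ha.2.1 a h).2]
      · simp [dg, E_apply, h'], fun x u w hx => by
    have k1 : E K r *ᵥ x = 0 := funext fun a => by
      rw [E_mulVec]
      by_cases h : es r a = 0
      · simp [h]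
      · have := congrFun hx (src r a)
        simp only [dg, mulVec_diagonal, (ha.2.1 a h).2, if_true] at this
        rw [(mul_eq_zero.1 (by linear_combination -this : 2 * x (src r a) = 0)).resolve_left h2]; simp
    have k2 := fun t => B_mt hF (y r t) x u w
    have k3 : ∀ (u v w : I → K) (t : K), B x (u + t • v) w = B x u w + t * B x v w := fun u v w t => by
      rw [B_comm', B_lin, B_comm' x u, B_comm' x v]
    simp only [mt_y hr, add_mulVec, one_mulVec, smul_mulVec, k1, smul_zero, add_zero, B_lin, k3] at k2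
    refine mul_left_cancel₀ h2 ?_
    rw [B_comm' x w]
    linear_combination k2 1 - k2 (-1)⟩
  have h5 : ∀ g, mt (j g) * E K r = E K r * mt (j g) := fun g => by
    have := congrArg (fun f : End K S => (f ⟨_, h4⟩).1 * mt (j g))
      (htriv S ((LinearMap.finrank_le_finrank_of_injective h3).trans (by simp [finrank_pi_fintype])) ρ g)
    simpa [ρ, mul_assoc, ← map_mul] using this
  refine z_ne j h2 hP (ha.2.1 i ha.1).2 (blk j htriv _ (ta_chk r hr) ?_ z ⟨i, ha.1, rfl⟩ ⟨i, ha.1, rfl⟩)
  rintro g g' _ k d ⟨c, hc, rfl⟩ hk -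
  have := congrFun (congrFun (h5 g) c) k
  rw [E_mul, mul_apply, sum_eq_zero fun m _ => by
    rw [E_apply]
    split_ifs with h
    · simp [show es r m = 0 from by_contra fun e => hk ⟨m, e, h⟩]
    · simp] at this
  rw [(mul_eq_zero.1 this.symm).resolve_left (es_ne hr hc), zero_mul]

theorem not_Ty : ¬ Ty P := by
  rintro (⟨-, a, h⟩ | ⟨-, r, hr, i, h⟩)
  exacts [not_TD j htriv hF h2 hz hP h, not_TA j htriv hF h2 hz hP hr h]

end CfsgLib.E6V
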