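import Mathlib
import Cfsg.Prelude.Def_E6
import Cfsg.Agent.Lib.E6V.Tab

/-!
The cubic form in 27 variables, its polarisations, and the root elements of its isometry group.
-/

set_option autoImplicit false

namespace CfsgLib.E6V

open Cfsg.Lie CfsgLib.Chev CfsgLib.Stein Matrix

section Ring

variable {F : Type*} [CommRing F]

/-- the trilinear form given by a list of terms -/
def ev3 (x y z : I → F) (L : List Tr) : F := (L.map fun t => (t.2.2.2 : F) * (x t.1 * y t.2.1 * z t.2.2.1)).sum

theorem ev3_nil (x y z : I → F) : ev3 x y z [] = 0 := rfl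

theorem ev3_cons (x y z : I → F) (t : Tr) (L : List Tr) :
    ev3 x y z (t :: L) = (t.2.2.2 : F) * (x t.1 * y t.2.1 * z t.2.2.1) + ev3 x y z L := by simp [ev3]

theorem ev3_append (x y z : I → F) (L L' : List Tr) : ev3 x y z (L ++ L') = ev3 x y z L + ev3 x y z L' := by
  simp [ev3]

/-- first polarisation -/
def pq (L : List Tr) : List Tr := L.flatMap fun t => [t, (t.1, t.2.2.1, t.2.1, t.2.2.2), (t.2.1, t.2.2.1, t.1, t.2.2.2)]

/-- second polarisation -/
def pb (L : List Tr) : List Tr := L.flatMap fun t => [t, (t.2.1, t.1, t.2.2.1, t.2.2.2)]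

/-- the cubic form -/
def T (x : I → F) : F := ev3 x x x TL

/-- its derivative at `x` in the direction `y` -/
def Q (x y : I → F) : F := ev3 x x y (pq TL)

/-- the symmetric trilinear form -/
def B (x y z : I → F) : F := ev3 x y z (pb (pq TL))

theorem T_add (x y : I → F) (t : F) : T (x + t • y) = T x + t * Q x y + t ^ 2 * Q y x + t ^ 3 * T y := by
  unfold T Q
  induction TL with
  | nil => simp [pq, ev3]
  | cons a L ih =>
    simp only [pq, List.flatMap_cons, ev3_append, ev3_cons, ev3_nil, Pi.add_apply, Pi.smul_apply, smul_eq_mul] at ih ⊢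
    rw [ih]; ring

theorem Q_add (x y z : I → F) : Q (x + y) z = Q x z + Q y z + B x y z := by
  unfold Q B
  induction pq TL with
  | nil => simp [pb, ev3]
  | cons a L ih =>
    simp only [pb, List.flatMap_cons, ev3_append, ev3_cons, ev3_nil, Pi.add_apply] at ih ⊢
    rw [ih]; ring

theorem B_comm (x y z : I → F) : B x y z = B y x z := by
  have := Q_add x y z
  rw [add_comm x, Q_add] at this
  linear_combination -this

theorem B_comm' (x y z : I → F) : B x y z = B x z y := by
  unfold B
  induction TL with
  | nil => simp [pq, pb, ev3]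
  | cons a L ih =>
    simp only [pq, pb, List.flatMap_cons, List.flatMap_append, ev3_append, ev3_cons, ev3_nil, List.flatMap_nil] at ih ⊢
    rw [ih]; ring

theorem B_lin (x y z w : I → F) (t : F) : B x y (z + t • w) = B x y z + t * B x y w := by
  unfold B
  induction pb (pq TL) with
  | nil => simp [ev3]
  | cons a L ih =>
    simp only [ev3_cons, Pi.add_apply, Pi.smul_apply, smul_eq_mul] at ih ⊢
    rw [ih]; ring

theorem B_smul (x y z : I → F) (t : F) : B (t • x) y z = t * B x y z := by
  unfold B
  induction pb (pq TL) with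
  | nil => simp [ev3]
  | cons a L ih =>
    simp only [ev3_cons, Pi.smul_apply, smul_eq_mul] at ih ⊢
    rw [ih]; ring

/-- the basis vectors -/
abbrev e (a : I) : I → F := Pi.single a 1

theorem B_sum (x y z : I → F) : B x y z = ∑ c, z c * B x y (e c) := by
  unfold B
  induction pb (pq TL) with
  | nil => simp [ev3]
  | cons a L ih =>
    simp only [ev3_cons, mul_add, Finset.sum_add_distrib, ← ih]
    simp [Pi.single_apply]; ring

theorem ev3_filter {x y z : I → F} {L : List Tr} (p : Tr → Bool)
    (h : ∀ t, p t = false → x t.1 * y t.2.1 * z t.2.2.1 = 0) : ev3 x y z L = ev3 x y z (L.filter p) := by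
  induction L with
  | nil => rfl
  | cons a L ih =>
    rw [List.filter_cons, ev3_cons, ih]
    cases hp : p a
    · simp [h a hp]
    · simp [ev3_cons]

theorem B_chk : ∀ s c : I, (pb (pq TL)).filter (fun t => t.1 == s && t.2.2.1 == c) =
    if sg s c = 0 then [] else [(s, th s c, c, sg s c)] := by decide +kernel

theorem B_ee (s c : I) (y : I → F) : B (e s) y (e c) = sg s c * y (th s c) := by
  rw [B, ev3_filter (fun t => t.1 == s && t.2.2.1 == c) fun t h => by
    simp only [Bool.and_eq_false_iff, beq_eq_false_iff_ne] at h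
    rcases h with h | h <;> simp [h], B_chk]
  split_ifs with h <;> simp [ev3, h]

theorem B_e (s : I) (y z : I → F) : B (e s) y z = ∑ c, z c * (sg s c * y (th s c)) := by
  simp only [B_sum (e s) y z, B_ee]

theorem th_spec : ∀ a b : I, sg a b ≠ 0 → sg a b * sg a b = 1 ∧ th a (th a b) = b ∧ sg a (th a b) = sg a b ∧
    th b a = th a b ∧ th (th a b) a = b := by decide +kernel

theorem sg_comm : ∀ a b : I, sg a b = sg b a := by decide +kernel

theorem sg_self : ∀ a : I, sg a a = 0 := by decide +kernel

theorem Q_chk : ∀ a c : I, sg a c ≠ 0 → (pq TL).filter (fun t => t.2.2.1 == th a c && (t.1 == a || sg a t.1 != 0) &&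
    (t.2.1 == a || sg a t.2.1 != 0)) ∈ [[(a, c, th a c, sg a c)], [(c, a, th a c, sg a c)]] := by decide +kernel

theorem Q_e (a : I) (y : I → F) : Q (e a) y = 0 := by
  rw [Q, ev3_filter (fun t => t.1 == a && t.2.1 == a) fun t h => by
    simp only [Bool.and_eq_false_iff, beq_eq_false_iff_ne] at h
    rcases h with h | h <;> simp [h], show ∀ a : I, (pq TL).filter (fun t => t.1 == a && t.2.1 == a) = [] by
      decide +kernel, ev3_nil]

theorem Q_nb {x : I → F} {a c : I} (h : sg a c ≠ 0) (h0 : ∀ b, b ≠ a → sg a b = 0 → x b = 0) :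
    Q x (e (th a c)) = sg a c * (x a * x c) := by
  have := Q_chk a c h
  rw [Q, ev3_filter (fun t => t.2.2.1 == th a c && (t.1 == a || sg a t.1 != 0) &&
    (t.2.1 == a || sg a t.2.1 != 0)) fun t h => by
    simp only [Bool.and_eq_false_iff, Bool.or_eq_false_iff, beq_eq_false_iff_ne, bne_eq_false_iff_eq] at h
    rcases h with (h | h) | h <;> simp [h, h0]]
  simp only [List.mem_cons, List.not_mem_nil, or_false] at this
  rcases this with h | h <;> simp [h, ev3, mul_comm]

/-- sort the indices -/
def srt (t : Tr) : Tr :=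
  if t.1 ≤ t.2.1 then (if t.2.1 ≤ t.2.2.1 then t else if t.1 ≤ t.2.2.1 then (t.1, t.2.2.1, t.2.1, t.2.2.2)
    else (t.2.2.1, t.1, t.2.1, t.2.2.2))
  else if t.1 ≤ t.2.2.1 then (t.2.1, t.1, t.2.2.1, t.2.2.2) else if t.2.1 ≤ t.2.2.1 then (t.2.1, t.2.2.1, t.1, t.2.2.2)
    else (t.2.2.1, t.2.1, t.1, t.2.2.2)

/-- insert a term, collecting -/
def ins3 (x : Tr) : List Tr → List Tr
  | [] => [x]
  | y :: L => if x.1 = y.1 ∧ x.2.1 = y.2.1 ∧ x.2.2.1 = y.2.2.1 then (y.1, y.2.1, y.2.2.1, x.2.2.2 + y.2.2.2) :: L
    else y :: ins3 x L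

/-- the test that a cubic form vanishes -/
def zchk (L : List Tr) : Bool := (((L.filter (·.2.2.2 != 0)).map srt).foldr ins3 []).all (·.2.2.2 == 0)

theorem ev3_eq_zero (x : I → F) {L : List Tr} (h : zchk L = true) : ev3 x x x L = 0 := by
  have h1 : ∀ (t : Tr) (L : List Tr), ev3 x x x (ins3 t L) = ev3 x x x (t :: L) := fun t L => by
    induction L with
    | nil => rfl
    | cons y L ih =>
      unfold ins3
      split_ifs with h
      · simp only [ev3_cons, h]; push_cast; ring
      · simp only [ev3_cons, ih]; ring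
  have h2 : ∀ L : List Tr, ev3 x x x (((L.filter (·.2.2.2 != 0)).map srt).foldr ins3 []) = ev3 x x x L := fun L => by
    induction L with
    | nil => rfl
    | cons y L ih =>
      rw [List.filter_cons, ev3_cons, ← ih]
      split_ifs with h
      · rw [List.map_cons, List.foldr_cons, h1, ev3_cons]
        unfold srt
        split_ifs <;> ring
      · simp [show y.2.2.2 = 0 by simpa using h]
  rw [← h2, ev3, List.sum_eq_zero]
  intro v hv
  obtain ⟨t, ht, rfl⟩ := List.mem_map.1 hv
  simp [show t.2.2.2 = 0 by simpa using List.all_eq_true.1 h t ht]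

variable (F) in
/-- the root vectors -/
def E (r : ℕ) : Matrix I I F := of fun a b => if src r a = b then (es r a : F) else 0

theorem E_apply (r : ℕ) (a b : I) : E F r a b = if src r a = b then (es r a : F) else 0 := rfl

theorem E_mulVec (r : ℕ) (v : I → F) (a : I) : (E F r *ᵥ v) a = es r a * v (src r a) := by
  simp [E, mulVec, dotProduct]

theorem E_mul (r : ℕ) (M : Matrix I I F) (a b : I) : (E F r * M) a b = es r a * M (src r a) b := by
  simp [E, mul_apply]

/-- substitute the root vector in the last variable and rotate -/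
def sb (r : ℕ) (L : List Tr) : List Tr := L.map fun t => (src r t.2.2.1, t.1, t.2.1, t.2.2.2 * es r t.2.2.1)

/-- rotate -/
def rot (L : List Tr) : List Tr := L.map fun t => (t.2.2.1, t.1, t.2.1, t.2.2.2)

theorem ev3_sb (r : ℕ) (x y z : I → F) (L : List Tr) : ev3 x y (E F r *ᵥ z) L = ev3 z x y (sb r L) := by
  simp only [ev3, sb, List.map_map, E_mulVec]
  congr 2; funext t; simp; ring

theorem ev3_rot (x y z : I → F) (L : List Tr) : ev3 x y z L = ev3 z x y (rot L) := by
  simp only [ev3, rot, List.map_map]
  congr 2; funext t; simp; ring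

theorem T_chk : ∀ r < 72, zchk (sb r (pq TL)) ∧ zchk (sb r (sb r (rot (pq TL)))) ∧ zchk (sb r (sb r (sb r TL))) := by
  decide +kernel

theorem T_E {r : ℕ} (hr : r < 72) (t : F) (x : I → F) : T (x + t • E F r *ᵥ x) = T x := by
  obtain ⟨h1, h2, h3⟩ := T_chk r hr
  rw [T_add, Q, Q, T.eq_1 (_ *ᵥ _), ev3_sb, ev3_eq_zero x h1, ev3_rot, ev3_sb, ev3_sb, ev3_eq_zero x h2, ev3_sb, ev3_sb,
    ev3_sb, ev3_eq_zero x h3]
  simp

theorem es_spec : ∀ r < 72, ∀ a : I, es r a ≠ 0 → es r a * es r a = 1 ∧ es r (src r a) = 0 := by decide +kernel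

theorem E_sq {r : ℕ} (hr : r < 72) : E F r * E F r = 0 := by
  ext a b
  by_cases h : es r a = 0
  · simp [E_mul, h]
  · simp [E_mul, E_apply, (es_spec r hr a h).2]

theorem cmk_spec {r s u : ℕ} {N : ℤ} (h : allLt 27 (cmk (rowR r) (rowR s) (rowR u) N) = true) :
    E F s * E F r = E F r * E F s - (N : F) • E F u ∧ E F r * E F u = 0 ∧ E F s * E F u = 0 := by
  have key : ∀ a b : I, es s a * (if src r (src s a) = b then es r (src s a) else 0) =
      es r a * (if src s (src r a) = b then es s (src r a) else 0) - N * (if src u a = b then es u a else 0) ∧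
      es r a * es u (src r a) = 0 ∧ es s a * es u (src s a) = 0 := fun a b => by
    have h0 : ∀ r (a : I), Nat.beq (cd (rowR r) a) 1 = true → es r a = 0 := fun r a h => by
      rw [es, sn, Nat.eq_of_beq_eq_true h]; rfl
    have h1 : ∀ {a b : I}, Nat.beq a b = true → a = b := fun h => Fin.ext (Nat.eq_of_beq_eq_true h)
    have := allLt_spec h a a.2
    unfold cmk at this
    simp only [Bool.cond_eq_ite] at this
    split_ifs at this with k1 k2 k3 k4 k5 <;>
      try simp only [Bool.and_eq_true, Bool.or_eq_true, beq_iff_eq] at this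
    · simp [h0 r a k1, h0 s a k2, h0 u a this]
    · simp [h0 r a k1, h0 r (src s a) k3, h0 u a this.2, h0 u (src s a) this.1]
    · have e1 := h1 (a := src r (src s a)) (b := src u a) this.2.1
      have e2 : es s a * es r (src s a) = -(N * es u a) := this.2.2
      simp [h0 r a k1, h0 u (src s a) this.1, e1, e2, neg_ite]
    · simp [h0 s a k4, h0 s (src r a) k5, h0 u a this.2, h0 u (src r a) this.1]
    · have e1 := h1 (a := src s (src r a)) (b := src u a) this.2.1
      have e2 : es r a * es s (src r a) = N * es u a := this.2.2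
      simp [h0 s a k4, h0 u (src r a) this.1, e1, e2]
    · have e2 : es s a * es r (src s a) = es r a * es s (src r a) := this.2.2
      rcases this.2.1.2 with k | k
      · simp [h0 u (src r a) this.1, h0 u (src s a) this.2.1.1.1, h0 u a this.2.1.1.2, ← e2, h0 r (src s a) k]
      · have e1 := h1 (a := src r (src s a)) (b := src s (src r a)) k
        simp [h0 u (src r a) this.1, h0 u (src s a) this.2.1.1.1, h0 u a this.2.1.1.2, e2, e1]
  refine ⟨?_, ?_, ?_⟩ <;> ext a b
  · have := congrArg (Int.cast (R := F)) (key a b).1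
    simpa [E_mul, E_apply] using this
  · have := congrArg (Int.cast (R := F)) (key a b).2.1
    simp only [E_mul, E_apply, mul_ite, Matrix.zero_apply]
    split_ifs
    · simpa using this
    · simp
  · have := congrArg (Int.cast (R := F)) (key a b).2.2
    simp only [E_mul, E_apply, mul_ite, Matrix.zero_apply]
    split_ifs
    · simpa using this
    · simp

end Ring

end CfsgLib.E6V
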