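import Mathlib
import Cfsg.Agent.Lib.E6V.Form
import Cfsg.Agent.Lib.RepChk.Basic
import Cfsg.Agent.Lib.RGD.Simple

/-!
The isometry group of the cubic form in 27 variables is generated by its root elements.
-/

set_option autoImplicit false

namespace CfsgLib.E6V

open Cfsg.Lie CfsgLib.Chev CfsgLib.Stein CfsgLib.RGD CfsgLib.Weyl Matrix

variable {F : Type*} [Field F]

variable (F) in
/-- the isometry group of the cubic form -/
def Γ : Subgroup (GL I F) := funStab F T

/-- the matrix of an isometry -/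
def mt : Γ F →* Matrix I I F := (Units.coeHom _).comp (Γ F).subtype

theorem mt_injective : Function.Injective (mt (F := F)) := Units.val_injective.comp Subtype.val_injective

theorem T_mt (g : Γ F) (v : I → F) : T (mt g *ᵥ v) = T v := g.2 v

theorem mt_inv_mulVec (g : Γ F) (v : I → F) : mt g *ᵥ (mt g⁻¹ *ᵥ v) = v := by
  rw [mulVec_mulVec, ← map_mul, mul_inv_cancel, map_one, one_mulVec]

theorem one_add_mul {r : ℕ} (hr : r < 72) (t u : F) : (1 + t • E F r) * (1 + u • E F r) = 1 + (t + u) • E F r := by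
  simp [add_mul, mul_add, E_sq hr, add_smul, add_assoc]

/-- the root elements -/
def y (r : ℕ) (t : F) : Γ F :=
  if hr : r < 72 then ⟨⟨1 + t • E F r, 1 + (-t) • E F r, by rw [one_add_mul hr]; simp, by rw [one_add_mul hr]; simp⟩, fun v => by
    simpa [add_mulVec, smul_mulVec] using T_E hr t v⟩ else 1

theorem mt_y {r : ℕ} (hr : r < 72) (t : F) : mt (y r t) = 1 + t • E F r := by
  rw [y, dif_pos hr]; rfl

theorem mt_y_mul {r : ℕ} (hr : r < 72) (t : F) (g : Γ F) (a b : I) :
    mt (y r t * g) a b = mt g a b + t * (es r a * mt g (src r a) b) := by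
  simp [mt_y hr, add_mul, E_mul]

theorem cmp_all {r s : ℕ} (hr : r < 72) (hs : s < 72) : cmp r s = true := by
  rcases lt_or_ge r 24 with h | h
  · exact allLt_spec (allLt_spec cmp_0 r h) s hs
  rcases lt_or_ge r 48 with h' | h'
  · have := allLt_spec cmp_1 (r - 24) (by omega)
    rw [Chev.force_eq, Nat.sub_add_cancel h] at this
    exact allLt_spec this s hs
  · have := allLt_spec cmp_2 (r - 48) (by omega)
    rw [Chev.force_eq, Nat.sub_add_cancel h'] at this
    exact allLt_spec this s hs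

theorem neg_eq : ∀ r < 72, chevE6.neg r = 71 - r := by decide +kernel

theorem rel12_y : Rel12 chevE6 (y (F := F)) := by
  refine ⟨fun r hr t u => mt_injective (by rw [map_mul, mt_y hr, mt_y hr, mt_y hr, one_add_mul hr]),
    fun r hr s hs h1 h2 t u => ?_⟩
  suffices y s u * y r t = y r t * y s u * wordG y (chevE6.commWord F r s t u) by
    rw [mul_assoc _ (y s u), this]; group
  have := cmp_all hr hs
  rw [neg_eq r hr] at h2
  simp only [cmp, Bool.or_eq_true, Nat.beq_eq, h1, h2, false_or] at this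
  rw [commWord_eq, ← tComm_ofD, matchE6.ofD_eq]
  split at this
  · next h =>
    have := (cmk_spec (F := F) this).1
    rw [h, List.map_nil, wordG_nil, mul_one]
    refine mt_injective ?_
    simp only [map_mul, mt_y hr, mt_y hs, add_mul, mul_add, smul_mul_assoc, mul_smul_comm, this]
    simp only [Int.cast_zero, mul_one, one_mul]
    module
  · next k N h =>
    rw [Bool.and_eq_true, Nat.blt_eq] at this
    obtain ⟨e1, e2, e3⟩ := cmk_spec (F := F) this.2
    rw [h, List.map_cons, List.map_nil, wordG_cons, wordG_nil, mul_one]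
    refine mt_injective ?_
    simp only [evalT, map_mul, mt_y hr, mt_y hs, mt_y this.1, add_mul, mul_add, smul_mul_assoc, mul_smul_comm, e1, e2, e3,
      mul_assoc, mul_one, one_mul, mul_zero]
    module
  · exact absurd this (by simp)

variable (hF : ∃ s : F, s ≠ 0 ∧ s ≠ 1)
include hF

theorem Q_mt (g : Γ F) (x z : I → F) : Q (mt g *ᵥ x) (mt g *ᵥ z) = Q x z := by
  obtain ⟨s, h0, h1⟩ := hF
  have h : ∀ t, t * Q (mt g *ᵥ x) (mt g *ᵥ z) + t ^ 2 * Q (mt g *ᵥ z) (mt g *ᵥ x) = t * Q x z + t ^ 2 * Q z x := fun t => by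
    have := T_mt g (x + t • z)
    rw [mulVec_add, mulVec_smul, T_add, T_add, T_mt, T_mt] at this
    linear_combination this
  refine mul_left_cancel₀ (mul_ne_zero h0 (sub_ne_zero.2 h1)) ?_
  linear_combination s ^ 2 * h 1 - h s

theorem B_mt (g : Γ F) (x z w : I → F) : B (mt g *ᵥ x) (mt g *ᵥ z) (mt g *ᵥ w) = B x z w := by
  have := Q_mt hF g (x + z) w
  rw [mulVec_add, Q_add, Q_add, Q_mt hF, Q_mt hF] at this
  exact add_left_cancel this

omit hF in
theorem mt_e (g : Γ F) (a b : I) : (mt g *ᵥ e a) b = mt g b a := by simp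

omit hF in
theorem sg_ne {a b : I} (h : sg a b ≠ 0) : (sg a b : F) ≠ 0 := fun e => by
  simpa [e] using congrArg (Int.cast (R := F)) (th_spec a b h).1

/-- images of basis vectors are white -/
theorem white (g : Γ F) {a c : I} (h1 : mt g a c ≠ 0) (h0 : ∀ b, b ≠ a → sg a b = 0 → mt g b c = 0) {b : I}
    (hb : b ≠ a) : mt g b c = 0 := by
  by_cases h : sg a b = 0
  · exact h0 b hb h
  have := Q_mt hF g (e c) (mt g⁻¹ *ᵥ e (th a b))
  rw [mt_inv_mulVec, Q_e, Q_nb h fun b h h' => (mt_e g c b).trans (h0 b h h'), mt_e, mt_e] at this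
  simpa [sg_ne h, h1] using this

/-- an isometry fixing a white line fixes its `17`-space -/
theorem v17 (g : Γ F) {s a d : I} (h : ∀ b, b ≠ s → mt g b s = 0) (ha : sg s a = 0) (hd : sg s d ≠ 0) : mt g d a = 0 := by
  have h1 : mt g *ᵥ e s = mt g s s • e s := funext fun b => by
    rw [mt_e]
    by_cases hb : b = s
    · simp [hb]
    · simp [hb, h b hb]
  have h2 : mt g s s ≠ 0 := fun e0 => by
    have := congrArg (fun v => (mt g⁻¹ *ᵥ v) s) h1
    simp only [mulVec_mulVec, ← map_mul] at this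
    simp [e0] at this
  have := B_mt hF g (e s) (e a) (mt g⁻¹ *ᵥ e (th s d))
  obtain ⟨-, k1, k2, -⟩ := th_spec s d hd
  rw [mt_inv_mulVec, h1, B_smul, B_ee, B_comm', B_ee, ha, k1, k2, mt_e] at this
  simpa [h2, sg_ne hd] using this

omit hF in
/-- `g` fixes the basis vectors in `S` -/
def Fx (S : List I) (g : Γ F) : Prop := ∀ s ∈ S, ∀ b, mt g b s = if b = s then 1 else 0

omit hF in
theorem Fx.mulVec {S : List I} {g : Γ F} (h : Fx S g) {s : I} (hs : s ∈ S) : mt g *ᵥ e s = e s := funext fun b => by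
  rw [mt_e, h s hs, e, Pi.single_apply]

omit hF in
theorem Fx.inv {S : List I} {g : Γ F} (h : Fx S g) : Fx S g⁻¹ := fun s hs b => by
  rw [← mt_e, ← h.mulVec hs, mulVec_mulVec, ← map_mul, inv_mul_cancel, map_one, one_mulVec, e, Pi.single_apply]

theorem Fx.v17 {S : List I} {g : Γ F} (h : Fx S g) {s a d : I} (hs : s ∈ S) (ha : sg s a = 0) (hd : sg s d ≠ 0) :
    mt g d a = 0 := E6V.v17 hF g (fun b hb => by rw [h s hs, if_neg hb]) ha hd

omit hF in
/-- the root `r` maps `p` to `q` and kills `S` -/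
def arr (S : List I) (r : ℕ) (p q : I) : Prop := src r q = p ∧ es r q ≠ 0 ∧ ∀ s ∈ S, ∀ i, src r i = s → es r i = 0

instance (S : List I) (r : ℕ) (p q : I) : Decidable (arr S r p q) := by unfold arr; infer_instance

omit hF in
theorem Fx.mul {S : List I} {g : Γ F} (h : Fx S g) {r : ℕ} (hr : r < 72) {p q : I} (ha : arr S r p q) (t : F) :
    Fx S (y r t * g) := fun s hs b => by
  rw [mt_y_mul hr, h s hs, h s hs]
  by_cases e : src r b = s
  · simp [ha.2.2 s hs b e]
  · simp [e]

omit hF in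
theorem es_ne {r : ℕ} (hr : r < 72) {a : I} (h : es r a ≠ 0) : (es r a : F) ≠ 0 := fun e => by
  simpa [e] using congrArg (Int.cast (R := F)) (es_spec r hr a h).1

variable (F) in
omit hF in
/-- the subgroup generated by the root elements -/
def G0 : Subgroup (Γ F) := UUx (fun (r : Fin chevE6.nroots) t => y r t) Set.univ

omit hF in
theorem of_mul_mem {r : ℕ} (hr : r < 72) (t : F) {g : Γ F} (h : y r t * g ∈ G0 F) : g ∈ G0 F :=
  (Subgroup.mul_mem_cancel_left _
    (mem_UUx (fun (r : Fin chevE6.nroots) t => y r t) (Ψ := Set.univ) (r := ⟨r, hr⟩) trivial t)).1 h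

omit hF in
theorem move {S : List I} {p q a : I} (h : ∃ r < 72, arr S r p q) (c : F)
    (hq : ∀ g : Γ F, Fx S g → mt g q a = c → g ∈ G0 F) (g : Γ F) (hg : Fx S g) (hp : mt g p a ≠ 0) : g ∈ G0 F := by
  obtain ⟨r, hr, h⟩ := h
  refine of_mul_mem hr ((c - mt g q a) / (es r q * mt g p a)) (hq _ (hg.mul hr h _) ?_)
  rw [mt_y_mul hr, h.1, div_mul_cancel₀ _ (mul_ne_zero (es_ne hr h.2.1) hp), add_sub_cancel]

omit hF in
/-- the certificate for one step of the chain -/
def stepOK (S : List I) (a : I) : Prop := a ∉ S ∧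
  ((∃ s ∈ S, ∃ s' ∈ S, sg s s' ≠ 0 ∧ th s s' = a) ∨ ∀ p, p ∈ S ∨ (∃ s ∈ S, ¬ (sg s a = 0 ↔ sg s p = 0)) ∨
    (∃ r < 72, arr S r p a) ∨ ∃ q, (∃ r < 72, arr S r q a) ∧ ∃ r < 72, arr S r p q) ∧
  ∀ b, sg a b ≠ 0 ∨ b = a ∨ (∃ s ∈ S, sg s a = 0 ∧ sg s b ≠ 0) ∨
    ∃ r < 72, arr S r a b ∧ ∀ i, sg a i = 0 → es r i ≠ 0 → i = b

instance (S : List I) (a : I) : Decidable (stepOK S a) := by unfold stepOK; infer_instance

theorem step {S : List I} {a : I} (h : stepOK S a) (ih : ∀ g : Γ F, Fx (a :: S) g → g ∈ G0 F) (g : Γ F) (hg : Fx S g) :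
    g ∈ G0 F := by
  have h1 : ∀ L : List I, ∀ g : Γ F, Fx S g → mt g a a = 1 → (∀ b, b ≠ a → sg a b = 0 → b ∉ L → mt g b a = 0) →
      g ∈ G0 F := fun L => by
    induction L with
    | nil =>
      refine fun g hg h1 h2 => ih g fun s hs b => ?_
      rcases List.mem_cons.1 hs with rfl | hs
      · split_ifs with e
        · rw [e, h1]
        · exact white hF g (h1 ▸ one_ne_zero) (fun b k k' => h2 b k k' List.not_mem_nil) e
      · exact hg s hs b
    | cons b L ihL =>
      intro g hg h1 h2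
      have h3 : (b ≠ a → sg a b = 0 → mt g b a = 0) → g ∈ G0 F := fun k => ihL g hg h1 fun c k1 k2 k3 => by
        by_cases e : c = b
        · exact e ▸ k (e ▸ k1) (e ▸ k2)
        · exact h2 c k1 k2 (by simp [e, k3])
      rcases h.2.2 b with k | k | ⟨s, hs, k, k'⟩ | ⟨r, hr, k, k'⟩
      · exact h3 fun _ e => absurd e k
      · exact h3 fun e => absurd k e
      · exact h3 fun _ _ => hg.v17 hF hs k k'
      have hba : a ≠ b := fun e => k.2.1 (by simpa [k.1, e] using (es_spec r hr b k.2.1).2)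
      have h4 : ∀ i t, sg a i = 0 → i ≠ b → mt (y r t * g) i a = mt g i a := fun i t k1 k2 => by
        rw [mt_y_mul hr, show es r i = 0 from by_contra fun e => k2 (k' i k1 e)]; simp
      refine of_mul_mem hr (- mt g b a / es r b) (ihL _ (hg.mul hr k _) (by rw [h4 _ _ (sg_self a) hba, h1])
        fun c k1 k2 k3 => ?_)
      by_cases e : c = b
      · rw [e, mt_y_mul hr, k.1, h1, mul_one, div_mul_cancel₀ _ (es_ne hr k.2.1), add_neg_cancel]
      · rw [h4 _ _ k2 e, h2 c k1 k2 (by simp [e, k3])]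
  have h2 : ∀ g : Γ F, Fx S g → mt g a a = 1 → g ∈ G0 F := fun g hg h => h1 (List.finRange 27) g hg h (by simp)
  rcases h.2.1 with ⟨s, hs, s', hs', k, rfl⟩ | k
  · refine h2 g hg (mul_left_cancel₀ (sg_ne k) ?_)
    have := B_mt hF g (e s) (e (th s s')) (e s')
    rwa [hg.mulVec hs, hg.mulVec hs', B_ee, B_ee, mt_e, e, Pi.single_eq_same] at this
  obtain ⟨p, -, hp⟩ := Finset.exists_ne_zero_of_sum_ne_zero (s := Finset.univ) (f := fun p => mt g⁻¹ a p * mt g p a) (by
    rw [← mul_apply, ← map_mul]; simp)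
  obtain ⟨p1, p2⟩ := mul_ne_zero_iff.1 hp
  rcases k p with k | ⟨s, hs, k⟩ | k | ⟨q, k, k'⟩
  · exact absurd (by rw [hg.inv p k, if_neg fun e : a = p => h.1 (e ▸ k)]) p1
  · exact absurd ⟨fun e => by_contra fun e' => p2 (hg.v17 hF hs e e'),
      fun e => by_contra fun e' => p1 (hg.inv.v17 hF hs e e')⟩ k
  · exact move k 1 h2 g hg p2
  · exact move k' 1 (fun g hg e => move k 1 h2 g hg (e ▸ one_ne_zero)) g hg p2

omit hF in
/-- the certificate for the chain -/
def chainOK : List I → List I → Bool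
  | S, [] => decide (∀ a, a ∈ S)
  | S, a :: L => decide (stepOK S a) && chainOK (a :: S) L

omit hF in
theorem chain_chk : chainOK [] [0, 1, 2, 3, 7, 5, 6, 4, 8, 9, 18, 12, 15, 19, 20, 10, 14, 16, 11, 13, 17, 21, 22, 23,
    24, 25, 26] = true := by decide +kernel

theorem G0_eq_top : G0 F = ⊤ := by
  suffices ∀ L S, chainOK S L = true → ∀ g : Γ F, Fx S g → g ∈ G0 F from
    eq_top_iff.2 fun g _ => this _ _ chain_chk g fun _ h => absurd h List.not_mem_nil
  intro L
  induction L with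
  | nil =>
    intro S h g hg
    rw [show g = 1 from mt_injective (by ext b s; rw [hg s (of_decide_eq_true h s), map_one, one_apply])]
    exact one_mem _
  | cons a L ih =>
    intro S h
    rw [chainOK, Bool.and_eq_true] at h
    exact step hF (of_decide_eq_true h.1) (ih _ h.2)

/-- **`E₆` is the isometry group of the cubic form modulo its centre.** -/
theorem exists_iso : ∃ φ : chevE6.group F ≃* Γ F ⧸ Subgroup.center (Γ F), ∀ r < chevE6.nroots, ∀ t,
    φ (xG chevE6 F r t) = y r t :=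
  RepChk.exists_equiv_quot_center rtOKE6 genOKE6 isSimpleGroup_E6 rel12_y (G0_eq_top hF) ⟨y 56 1, y 15 1, fun h => by
    obtain ⟨a, h1, h2, h3⟩ : ∃ a, es 56 a ≠ 0 ∧ es 15 a = 0 ∧ src 15 (src 56 a) = a ∧ es 15 (src 56 a) ≠ 0 := by
      decide +kernel
    have := congrFun (congrFun (congrArg mt h) a) a
    have h4 : src 56 a ≠ a := fun e => h3.2 (e.symm ▸ h2)
    rw [mt_y_mul (by decide), mt_y_mul (by decide), mt_y (by decide), mt_y (by decide)] at this
    simp [E_apply, h2, h3.1, h4, es_ne (F := F) (r := 56) (by decide) h1, es_ne (F := F) (r := 15) (by decide) h3.2] at this⟩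

end CfsgLib.E6V
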